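import Cfsg.Agent.Lib.Odd.PF4a

/-! Linear characters of `W₁ × W₂` as pairs; translation of the frozen vocabulary of sections 3, 4. -/

set_option autoImplicit false
set_option linter.unusedSectionVars false

open Cfsg CA.BG
open scoped ComplexConjugate

namespace CA.PF

variable {Γ : Type*} [Group Γ] {W₁ W₂ : Subgroup Γ}

def r₁ (ω : ↥(W₁ ⊔ W₂) →* ℂˣ) : Lin W₁ := Lin.mk (ω.comp (Subgroup.inclusion le_sup_left))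
def r₂ (ω : ↥(W₁ ⊔ W₂) →* ℂˣ) : Lin W₂ := Lin.mk (ω.comp (Subgroup.inclusion le_sup_right))

variable {ω ω' φ ψ : ↥(W₁ ⊔ W₂) →* ℂˣ}

theorem r₁_mul (ω ω' : ↥(W₁ ⊔ W₂) →* ℂˣ) : r₁ (ω * ω') = r₁ ω * r₁ ω' := rfl
theorem r₂_mul (ω ω' : ↥(W₁ ⊔ W₂) →* ℂˣ) : r₂ (ω * ω') = r₂ ω * r₂ ω' := rfl
theorem r₁_pow (ω : ↥(W₁ ⊔ W₂) →* ℂˣ) (n : ℕ) : r₁ (ω ^ n) = r₁ ω ^ n := Lin.ext fun _ => rfl
theorem r₂_pow (ω : ↥(W₁ ⊔ W₂) →* ℂˣ) (n : ℕ) : r₂ (ω ^ n) = r₂ ω ^ n := Lin.ext fun _ => rfl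
theorem r₁_eq_iff : r₁ ω = r₁ ω' ↔ ∀ w : ↥(W₁ ⊔ W₂), (w : Γ) ∈ W₁ → ω w = ω' w :=
  ⟨fun h w hw => DFunLike.congr_fun h ⟨w, hw⟩, fun h => Lin.ext fun w => h _ w.2⟩
theorem r₂_eq_iff : r₂ ω = r₂ ω' ↔ ∀ w : ↥(W₁ ⊔ W₂), (w : Γ) ∈ W₂ → ω w = ω' w :=
  ⟨fun h w hw => DFunLike.congr_fun h ⟨w, hw⟩, fun h => Lin.ext fun w => h _ w.2⟩
theorem r₁_eq_one : r₁ ω = 1 ↔ ∀ w : ↥(W₁ ⊔ W₂), (w : Γ) ∈ W₁ → ω w = 1 := r₁_eq_iff (ω' := 1)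
theorem r₂_eq_one : r₂ ω = 1 ↔ ∀ w : ↥(W₁ ⊔ W₂), (w : Γ) ∈ W₂ → ω w = 1 := r₂_eq_iff (ω' := 1)
theorem r_ext (h1 : r₁ ω = r₁ ω') (h2 : r₂ ω = r₂ ω') : ω = ω' := MonoidHom.ext fun w => by
  have : W₁ ⊔ W₂ ≤ (ω.eqLocus ω').map (W₁ ⊔ W₂).subtype :=
    sup_le (fun x hx => ⟨⟨x, Subgroup.mem_sup_left hx⟩, r₁_eq_iff.1 h1 _ hx, rfl⟩)
      fun x hx => ⟨⟨x, Subgroup.mem_sup_right hx⟩, r₂_eq_iff.1 h2 _ hx, rfl⟩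
  obtain ⟨y, hy, e⟩ := this w.2
  exact Subtype.ext e ▸ hy
theorem r_eq_iff : r₁ ω = r₁ ω' ∧ r₂ ω = r₂ ω' ↔ ω = ω' :=
  ⟨fun h => r_ext h.1 h.2, fun h => h ▸ ⟨rfl, rfl⟩⟩

variable [Fintype Γ]

theorem primeTI_of {K : Subgroup Γ} [hK : K.Normal] (h1 : K ⊓ W₁ = ⊥) (h2 : K ⊔ W₁ = ⊤)
    (h3 : W₁ ≠ ⊥) (h4 : IsCyclic W₁) (h5 : Nat.Coprime (Nat.card W₁) W₁.index) (h6 : W₂ ≠ ⊥)
    (h7 : IsCyclic W₂) (h8 : W₂ ≤ K)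
    (h9 : ∀ x ∈ W₁, x ≠ 1 → K ⊓ Subgroup.centralizer ({x} : Set Γ) = W₂)
    (h10 : Odd (Nat.card ↥(W₁ ⊔ W₂))) : PrimeTI ⊤ K W₁ W₂ :=
  ⟨⟨le_top.trans (nrm_top K).le_normalizer, h1, h2⟩, h3,
    ⟨le_top, by rwa [Subgroup.relIndex_top_right]⟩, h4, h6, h8, h7, h9, h10⟩

namespace AbD
variable (h : AbD W₁ W₂)
include h

theorem wch_r (ω : ↥(W₁ ⊔ W₂) →* ℂˣ) : wch (r₁ ω) (r₂ ω) = lin (Lin.mk ω) :=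
  h.wch_ext (lin_on _) fun x hx y hy => by
    rw [lin_apply_mul _ (Subgroup.mem_sup_left hx), lin_of_mem _ hx, lin_of_mem _ hy,
      lin_of_mem _ (Subgroup.mem_sup_left hx), lin_of_mem _ (Subgroup.mem_sup_right hy)]
    rfl
theorem wch_r_apply (ω : ↥(W₁ ⊔ W₂) →* ℂˣ) (w : ↥(W₁ ⊔ W₂)) : wch (r₁ ω) (r₂ ω) w = (ω w : ℂ) := by
  rw [h.wch_r, lin_coe]; rfl
theorem exists_r (i : Lin W₁) (j : Lin W₂) : ∃ ω : ↥(W₁ ⊔ W₂) →* ℂˣ, r₁ ω = i ∧ r₂ ω = j := by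
  obtain ⟨l, e⟩ := irr_exists_lin h.comm (h.wch_irr i j)
  refine ⟨l.hom, by_contra fun hn => ?_⟩
  have := h.dot_wch (r₁ l.hom) i (r₂ l.hom) j
  rw [if_neg hn, h.wch_r, e] at this
  exact one_ne_zero ((dot_irr_self (lin_irr l)).symm.trans this)
theorem ext_alpha (h2 : r₂ φ = 1) (h1 : r₁ ψ = 1) : extendByZero (W₁ ⊔ W₂)
    (fun w => 1 - (φ w : ℂ) - (ψ w : ℂ) + (φ w : ℂ) * (ψ w : ℂ)) = alpha (r₁ φ) (r₂ ψ) := by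
  refine CF_ext (ext_on _ _) (VC_on (h.alpha_VC _ _)) fun x hx => ?_
  have e1 := h.wch_r_apply φ ⟨x, hx⟩
  have e2 := h.wch_r_apply ψ ⟨x, hx⟩
  have e3 := h.wch_r_apply (φ * ψ) ⟨x, hx⟩
  rw [r₁_mul, r₂_mul, h1, h2, mul_one, one_mul] at e3
  rw [h2] at e1
  rw [h1] at e2
  rw [CA.Ind.ext_of_mem _ _ hx, alpha, Pi.add_apply, Pi.sub_apply, Pi.sub_apply, e1, e2, e3,
    triv_of_mem hx]
  simp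
theorem exists_fam {χ : (↥(W₁ ⊔ W₂) →* ℂˣ) → Γ → ℂ} (hχ : IsCyclicTIFamily W₁ W₂ χ) :
    ∃ χ' : Lin W₁ → Lin W₂ → Γ → ℂ, Fam ⊤ χ' ∧ ∀ ω, χ' (r₁ ω) (r₂ ω) = χ ω := by
  choose o h1 h2 using h.exists_r
  have e : ∀ ω, o (r₁ ω) (r₂ ω) = ω := fun ω => r_ext (h1 _ _) (h2 _ _)
  have e1 : χ (o 1 1) = triv ⊤ := by rw [triv_top, ← hχ.map_one]; exact congrArg χ (e 1)
  refine ⟨fun i j => χ (o i j), ⟨fun i j => dirr_top.2 (hχ.irr_or_neg _), fun i i' j j' => ?_, e1,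
    fun i j => ?_⟩, fun ω => congrArg χ (e ω)⟩
  · rw [dot_top, hχ.orthonormal]
    simp only [← r_eq_iff, h1, h2]
  · by_cases hi : i = 1
    · rw [hi, h.alpha_one_left, map_zero, e1]; abel
    by_cases hj : j = 1
    · rw [hj, h.alpha_one_right, map_zero, e1]; abel
    have := h.ext_alpha (h2 i 1) (h1 1 j)
    rw [h1, h2] at this
    rw [← this, Ind_top, hχ.induced_eq _ _ (fun e => hi (by rw [← h1 i 1, e]; rfl))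
      (fun e => hj (by rw [← h2 1 j, e]; rfl)) (r₂_eq_one.1 (h2 _ _)) (r₁_eq_one.1 (h1 _ _)),
      show o i 1 * o 1 j = o i j from r_ext (by rw [r₁_mul, h1, h1, h1, mul_one])
        (by rw [r₂_mul, h2, h2, h2, one_mul]), triv_top]
    rfl

end AbD

end CA.PF
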